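import Mathlib
import Cfsg.Agent.Lib.Helper84.PS.Defs
import Cfsg.Agent.Lib.Helper12.Card

set_option autoImplicit false

namespace Cfsg.Agent.Lib.Helper14.PS

open Cfsg.Agent.Lib.Helper84.PS
open scoped Pointwise

variable {G : Type*} [Group G]

theorem aux_idx_conj (g x : G) : idx (g * x * g⁻¹) = idx x := by
  have h : Subgroup.centralizer ({g * x * g⁻¹} : Set G)
      = (Subgroup.centralizer ({x} : Set G)).map (MulAut.conj g : G ≃* G).toMonoidHom := by
    ext y
    rw [Subgroup.mem_map_equiv, Subgroup.mem_centralizer_singleton_iff,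
      Subgroup.mem_centralizer_singleton_iff, MulAut.conj_symm_apply]
    constructor
    · intro h
      have : g⁻¹ * (y * (g * x * g⁻¹)) * g = g⁻¹ * (g * x * g⁻¹ * y) * g := by rw [h]
      calc g⁻¹ * y * g * x = g⁻¹ * (y * (g * x * g⁻¹)) * g := by group
        _ = g⁻¹ * (g * x * g⁻¹ * y) * g := this
        _ = x * (g⁻¹ * y * g) := by group
    · intro h
      calc y * (g * x * g⁻¹) = g * (g⁻¹ * y * g * x) * g⁻¹ := by group
        _ = g * (x * (g⁻¹ * y * g)) * g⁻¹ := by rw [h]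
        _ = g * x * g⁻¹ * y := by group
  unfold idx
  rw [h]
  exact Subgroup.index_map_of_bijective (f := (MulAut.conj g : G ≃* G).toMonoidHom)
    (MulAut.conj g : G ≃* G).bijective _

theorem aux_isPE_conj {p : ℕ} {x : G} (h : IsPE p x) (g : G) : IsPE p (g * x * g⁻¹) := by
  obtain ⟨e, he⟩ := h
  exact ⟨e, by rw [conj_pow, he]; group⟩

theorem aux_exists_sylow_le [Finite G] {l : ℕ} [Fact l.Prime] (x : G) (h : ¬ l ∣ idx x) :
    ∃ S : Sylow l G, (S : Subgroup G) ≤ Subgroup.centralizer ({x} : Set G) := by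
  obtain ⟨Q⟩ : Nonempty (Sylow l (Subgroup.centralizer ({x} : Set G))) := inferInstance
  have hQ : IsPGroup l ((Q : Subgroup _).map (Subgroup.centralizer ({x} : Set G)).subtype) :=
    Q.2.map _
  have hi : ¬ l ∣ ((Q : Subgroup _).map (Subgroup.centralizer ({x} : Set G)).subtype).index := by
    rw [Subgroup.index_map_subtype]
    intro hd
    rcases (Nat.Prime.dvd_mul Fact.out).mp hd with h1 | h1
    · exact Q.not_dvd_index h1
    · exact h h1
  exact ⟨hQ.toSylow hi, Subgroup.map_subtype_le _⟩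

theorem aux_not_dvd_idx_of_sylow_le [Finite G] {l : ℕ} [Fact l.Prime] (x : G) (S : Sylow l G)
    (h : (S : Subgroup G) ≤ Subgroup.centralizer ({x} : Set G)) : ¬ l ∣ idx x :=
  fun hd => S.not_dvd_index (hd.trans (Subgroup.index_dvd_of_le h))

theorem aux_isPGroup_zpowers {p : ℕ} {x : G} (hx : IsPE p x) :
    IsPGroup p (Subgroup.zpowers x) := by
  obtain ⟨e, he⟩ := hx
  rintro ⟨y, hy⟩
  obtain ⟨k, rfl⟩ := Subgroup.mem_zpowers_iff.mp hy
  refine ⟨e, Subtype.ext ?_⟩
  change (x ^ k) ^ p ^ e = 1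
  rw [← zpow_natCast, ← zpow_mul, mul_comm, zpow_mul, zpow_natCast, he, one_zpow]

/-- a `p`-element is conjugate into a given Sylow `p`-subgroup -/
theorem aux_exists_conj_mem_sylow [Finite G] {p : ℕ} [Fact p.Prime] (x : G) (hx : IsPE p x)
    (P : Sylow p G) : ∃ g : G, g * x * g⁻¹ ∈ (P : Subgroup G) := by
  obtain ⟨Q, hQ⟩ := (aux_isPGroup_zpowers hx).exists_le_sylow
  obtain ⟨g, hg⟩ := MulAction.exists_smul_eq G Q P
  refine ⟨g, ?_⟩
  rw [← hg, Sylow.coe_subgroup_smul]
  exact Subgroup.smul_mem_pointwise_smul x (MulAut.conj g) _ (hQ (Subgroup.mem_zpowers x))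

/-- coprime indices: `G = H K` -/
theorem aux_exists_mul_of_coprime [Finite G] (H K : Subgroup G) (h : (H.index).Coprime K.index)
    (g : G) : ∃ a ∈ H, ∃ b ∈ K, g = a * b := by
  have h1 := Cfsg.Agent.Lib.Helper12.mul_eq_univ_of_coprime_index H K h
  have h2 : g ∈ (H : Set G) * (K : Set G) := by rw [h1]; exact Set.mem_univ g
  obtain ⟨a, ha, b, hb, rfl⟩ := Set.mem_mul.mp h2
  exact ⟨a, ha, b, hb, rfl⟩

/-- a group is not the union of two proper subgroups -/
theorem aux_le_or_le {H A B : Subgroup G} (h : ∀ x ∈ H, x ∈ A ∨ x ∈ B) : H ≤ A ∨ H ≤ B := by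
  by_contra hcon
  rw [not_or] at hcon
  obtain ⟨hA, hB⟩ := hcon
  obtain ⟨x, hx, hxA⟩ := SetLike.not_le_iff_exists.mp hA
  obtain ⟨y, hy, hyB⟩ := SetLike.not_le_iff_exists.mp hB
  have hxB : x ∈ B := (h x hx).resolve_left hxA
  have hyA : y ∈ A := (h y hy).resolve_right hyB
  rcases h (x * y) (H.mul_mem hx hy) with h1 | h1
  · exact hxA ((Subgroup.mul_mem_cancel_right A hyA).mp h1)
  · exact hyB ((Subgroup.mul_mem_cancel_left B hxB).mp h1)

/-- if `idx y` has no prime divisor besides `p`, it is coprime to the index of a Sylow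
`p`-subgroup. -/
theorem aux_coprime_index [Finite G] {p : ℕ} [Fact p.Prime] (P : Sylow p G) (y : G)
    (h : ∀ l : ℕ, l.Prime → l ≠ p → ¬ l ∣ idx y) :
    ((P : Subgroup G).index).Coprime (idx y) := by
  apply Nat.Coprime.symm
  apply Nat.coprime_of_dvd
  intro l hl hly hlP
  by_cases hlp : l = p
  · subst hlp; exact P.not_dvd_index hlP
  · exact h l hl hlp hly

end Cfsg.Agent.Lib.Helper14.PS
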