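import Cfsg.Agent.Lib.Helper14.PSAux

set_option autoImplicit false

namespace Cfsg.Agent.Lib.Helper14.PS

open Cfsg.Agent.Lib.Helper84.PS
open scoped Pointwise

variable {G : Type*} [Group G]

/-- a normal subgroup contained in one Sylow `p`-subgroup lies in all of them -/
theorem st6_le_sylow [Finite G] {p : ℕ} [Fact p.Prime] (P S : Sylow p G) {O : Subgroup G}
    [hO : O.Normal] (h : O ≤ P) : O ≤ S := by
  obtain ⟨g, hg⟩ := MulAction.exists_smul_eq G P S
  intro x hx
  rw [← hg, Sylow.coe_subgroup_smul]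
  have h1 : g⁻¹ * x * g⁻¹⁻¹ ∈ O := hO.conj_mem x hx g⁻¹
  have h2 := Subgroup.smul_mem_pointwise_smul _ (MulAut.conj g) _ (h h1)
  have h3 : MulAut.conj g • (g⁻¹ * x * g⁻¹⁻¹) = x := by
    rw [MulAut.smul_def, MulAut.conj_apply]; group
  rwa [h3] at h2

theorem st6 [Finite G] (p : ℕ) [Fact p.Prime] (P : Sylow p G)
    (h5 : ∀ y : G, IsPE p y → p ∣ idx y → ∀ l : ℕ, l.Prime → l ≠ p → ¬ l ∣ idx y)
    (v : G) (hvp : IsPE p v) (hv : p ∣ idx v) : (P : Subgroup G).Normal := by
  set O := (P : Subgroup G).normalCore with hO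
  have hOP : O ≤ P := Subgroup.normalCore_le _
  have hPE : ∀ y ∈ (P : Subgroup G), IsPE p y := by
    intro y hy
    obtain ⟨e, he⟩ := P.2 ⟨y, hy⟩
    exact ⟨e, congrArg Subtype.val he⟩
  have hb : ∀ y ∈ (P : Subgroup G), p ∣ idx y → y ∈ O := by
    intro y hy hd
    have hc := aux_coprime_index P y (h5 y (hPE y hy) hd)
    rw [hO, Subgroup.normalCore, Subgroup.mem_mk]
    intro g
    obtain ⟨a, ha, b, hb, rfl⟩ := aux_exists_mul_of_coprime _ _ hc g
    rw [Subgroup.mem_centralizer_singleton_iff] at hb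
    have : a * b * y * (a * b)⁻¹ = a * y * a⁻¹ := by
      calc a * b * y * (a * b)⁻¹ = a * (b * y) * b⁻¹ * a⁻¹ := by group
        _ = a * (y * b) * b⁻¹ * a⁻¹ := by rw [hb]
        _ = a * y * a⁻¹ := by group
    rw [this]
    exact (P : Subgroup G).mul_mem ((P : Subgroup G).mul_mem ha hy) ((P : Subgroup G).inv_mem ha)
  have hcov : ∀ y ∈ (P : Subgroup G), y ∈ O ∨ y ∈ Subgroup.centralizer (O : Set G) := by
    intro y hy
    by_cases hd : p ∣ idx y
    · exact Or.inl (hb y hy hd)
    · right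
      obtain ⟨S, hS⟩ := aux_exists_sylow_le y hd
      rw [Subgroup.mem_centralizer_iff]
      intro o ho
      have h1 := hS (st6_le_sylow P S hOP ho)
      rw [Subgroup.mem_centralizer_singleton_iff] at h1
      exact h1
  rcases aux_le_or_le hcov with h | h
  · have : (P : Subgroup G) = O := le_antisymm h hOP
    rw [this]
    infer_instance
  · exfalso
    obtain ⟨g, hg⟩ := aux_exists_conj_mem_sylow v hvp P
    have hd : p ∣ idx (g * v * g⁻¹) := by rw [aux_idx_conj]; exact hv
    have hvO := hb _ hg hd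
    apply aux_not_dvd_idx_of_sylow_le (g * v * g⁻¹) P _ hd
    intro x hx
    rw [Subgroup.mem_centralizer_singleton_iff]
    exact (Subgroup.mem_centralizer_iff.mp (h hx) _ hvO).symm

end Cfsg.Agent.Lib.Helper14.PS
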