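import Cfsg.Agent.Lib.Helper14.PSAux

set_option autoImplicit false

namespace Cfsg.Agent.Lib.Helper14.PS

open Cfsg.Agent.Lib.Helper84.PS
open scoped Pointwise

variable {G : Type*} [Group G]

/-- a proper subgroup of a finite `p`-group lies in a proper normal subgroup -/
theorem st7_exists_normal {Q : Type*} [Group Q] [Finite Q] {p : ℕ} [Fact p.Prime]
    (hQ : IsPGroup p Q) {D : Subgroup Q} (hD : D ≠ ⊤) :
    ∃ M : Subgroup Q, M.Normal ∧ D ≤ M ∧ M ≠ ⊤ := by
  obtain ⟨M, hM, hDM⟩ := (eq_top_or_exists_le_coatom D).resolve_left hD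
  have hn : Group.IsNilpotent Q := hQ.isNilpotent
  exact ⟨M, Subgroup.NormalizerCondition.normal_of_coatom M
    (Group.normalizerCondition_of_isNilpotent (G := Q)) hM, hDM, hM.1⟩

theorem st7 [Finite G] (p : ℕ) [Fact p.Prime] (P : Sylow p G) (hN : (P : Subgroup G).Normal)
    (h5 : ∀ y : G, IsPE p y → p ∣ idx y → ∀ l : ℕ, l.Prime → l ≠ p → ¬ l ∣ idx y)
    (u v : G) (hup : IsPE p u) (hvp : IsPE p v) (hv : p ∣ idx v)
    (t : ℕ) (ht : t.Prime) (htp : t ≠ p) (htu : t ∣ idx u) : False := by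
  have : Fact t.Prime := ⟨ht⟩
  have hmemP : ∀ y : G, IsPE p y → y ∈ (P : Subgroup G) := by
    intro y hy
    obtain ⟨g, hg⟩ := aux_exists_conj_mem_sylow y hy P
    have h1 := hN.conj_mem _ hg g⁻¹
    have h2 : g⁻¹ * (g * y * g⁻¹) * g⁻¹⁻¹ = y := by group
    rwa [h2] at h1
  have hPE : ∀ y ∈ (P : Subgroup G), IsPE p y := by
    intro y hy
    obtain ⟨e, he⟩ := P.2 ⟨y, hy⟩
    exact ⟨e, congrArg Subtype.val he⟩
  have huP := hmemP u hup
  have hvP := hmemP v hvp
  obtain ⟨T⟩ : Nonempty (Sylow t G) := inferInstance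
  -- `C_P(T) ≠ P`
  have hD : (Subgroup.centralizer ((T : Subgroup G) : Set G)).subgroupOf (P : Subgroup G) ≠ ⊤ := by
    intro h
    rw [Subgroup.subgroupOf_eq_top] at h
    apply aux_not_dvd_idx_of_sylow_le u T _ htu
    intro x hx
    rw [Subgroup.mem_centralizer_singleton_iff]
    exact Subgroup.mem_centralizer_iff.mp (h huP) x hx
  obtain ⟨M, hMn, hDM, hMtop⟩ := st7_exists_normal P.2 hD
  have hcov : ∀ y ∈ (P : Subgroup G), y ∈ Subgroup.centralizer ((P : Subgroup G) : Set G) ∨
      y ∈ M.map (P : Subgroup G).subtype := by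
    intro y hy
    by_cases hd : p ∣ idx y
    · right
      have h5y := h5 y (hPE y hy) hd
      obtain ⟨S, hS⟩ := aux_exists_sylow_le y (h5y t ht htp)
      obtain ⟨g, hg⟩ := MulAction.exists_smul_eq G T S
      have hc := (aux_coprime_index P y h5y).symm
      obtain ⟨c, hc', x, hx, rfl⟩ := aux_exists_mul_of_coprime _ _ hc g
      -- `x⁻¹ y x` centralizes `T`
      have hcen : x⁻¹ * y * x ∈ Subgroup.centralizer ((T : Subgroup G) : Set G) := by
        rw [Subgroup.mem_centralizer_iff]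
        intro s hs
        have h1 : (c * x) * s * (c * x)⁻¹ ∈ (S : Subgroup G) := by
          rw [← hg, Sylow.coe_subgroup_smul]
          exact Subgroup.smul_mem_pointwise_smul s (MulAut.conj (c * x)) _ hs
        have h2 := hS h1
        rw [Subgroup.mem_centralizer_singleton_iff] at h2 hc'
        -- c (x s x⁻¹) c⁻¹ commutes with y, c commutes with y
        have hc'' : c⁻¹ * y = y * c⁻¹ := by
          calc c⁻¹ * y = c⁻¹ * (y * c) * c⁻¹ := by group
            _ = c⁻¹ * (c * y) * c⁻¹ := by rw [hc']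
            _ = y * c⁻¹ := by group
        have h3 : x * s * x⁻¹ * y = y * (x * s * x⁻¹) := by
          calc x * s * x⁻¹ * y = c⁻¹ * (c * x * s * (c * x)⁻¹ * (c * y)) := by group
            _ = c⁻¹ * (c * x * s * (c * x)⁻¹ * y * c) := by rw [hc']; group
            _ = c⁻¹ * (y * (c * x * s * (c * x)⁻¹) * c) := by rw [h2]
            _ = (c⁻¹ * y) * (c * x * s * (c * x)⁻¹) * c := by group
            _ = (y * c⁻¹) * (c * x * s * (c * x)⁻¹) * c := by rw [hc'']
            _ = y * (x * s * x⁻¹) := by group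
        calc s * (x⁻¹ * y * x) = x⁻¹ * (x * s * x⁻¹ * y) * x := by group
          _ = x⁻¹ * (y * (x * s * x⁻¹)) * x := by rw [h3]
          _ = x⁻¹ * y * x * s := by group
      have hxyP : x⁻¹ * y * x ∈ (P : Subgroup G) :=
        (P : Subgroup G).mul_mem ((P : Subgroup G).mul_mem ((P : Subgroup G).inv_mem hx) hy) hx
      have hM1 : (⟨x⁻¹ * y * x, hxyP⟩ : ↥(P : Subgroup G)) ∈ M :=
        hDM (Subgroup.mem_subgroupOf.mpr hcen)
      have hM2 := hMn.conj_mem _ hM1 ⟨x, hx⟩
      refine Subgroup.mem_map.mpr ⟨_, hM2, ?_⟩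
      change x * (x⁻¹ * y * x) * x⁻¹ = y
      group
    · left
      obtain ⟨S, hS⟩ := aux_exists_sylow_le y hd
      have hSP : (S : Subgroup G) = P := by
        obtain ⟨g, hg⟩ := MulAction.exists_smul_eq G P S
        rw [← hg, Sylow.smul_eq_of_normal]
      rw [Subgroup.mem_centralizer_iff]
      intro z hz
      have h1 := hS (hSP ▸ hz)
      rw [Subgroup.mem_centralizer_singleton_iff] at h1
      exact h1
  rcases aux_le_or_le hcov with h | h
  · apply aux_not_dvd_idx_of_sylow_le v P _ hv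
    intro x hx
    rw [Subgroup.mem_centralizer_singleton_iff]
    exact (Subgroup.mem_centralizer_iff.mp (h hx) v hvP).symm
  · apply hMtop
    rw [eq_top_iff]
    intro z _
    obtain ⟨m, hm, hmz⟩ := Subgroup.mem_map.mp (h z.2)
    have : m = z := Subtype.ext hmz
    rwa [← this]

end Cfsg.Agent.Lib.Helper14.PS
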