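import Cfsg.Agent.Lib.Helper54.CoprimeGen
import Cfsg.Agent.Lib.Helper52.Subn
import Mathlib

set_option autoImplicit false

namespace Cfsg.Agent.Lib.Helper14

open Subgroup

variable {X : Type*} [Group X]

/-- `a ^ p = 1`, `y` in a `p'`-group `Y` normalised by `a`: if `a` commutes with `[a, y]` then it
commutes with `y`. -/
theorem commute_of_commute_commutator [Finite X] {p : ℕ} {a y : X} {Y : Subgroup X}
    (hap : a ^ p = 1) (hY : (Nat.card Y).Coprime p) (haY : a ∈ normalizer (Y : Set X)) (hy : y ∈ Y)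
    (hc : Commute a (a * y * a⁻¹ * y⁻¹)) : Commute a y := by
  set c := a * y * a⁻¹ * y⁻¹ with hcdef
  have hcY : c ∈ Y := Y.mul_mem ((mem_normalizer_iff.mp haY y).mp hy) (Y.inv_mem hy)
  have h3 : a * y * a⁻¹ = c * y := by rw [hcdef]; group
  have h1 : ∀ k : ℕ, a ^ k * y * (a ^ k)⁻¹ = c ^ k * y := by
    intro k
    induction k with
    | zero => simp
    | succ k ih =>
      have h0 : a ^ (k+1) * y * (a ^ (k+1))⁻¹ = a * (a ^ k * y * (a ^ k)⁻¹) * a⁻¹ := by
        rw [pow_succ']; group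
      rw [h0, ih]
      have h2 : a * c ^ k = c ^ k * a := (hc.pow_right k).eq
      calc a * (c ^ k * y) * a⁻¹ = (a * c ^ k) * y * a⁻¹ := by group
        _ = c ^ k * (a * y * a⁻¹) := by rw [h2]; group
        _ = c ^ (k+1) * y := by rw [h3, pow_succ]; group
  have h2 := h1 p
  rw [hap] at h2
  have h4 : c ^ p = 1 := by simpa using h2.symm
  have h5 : c = 1 := by
    have hd1 : orderOf c ∣ p := orderOf_dvd_of_pow_eq_one h4
    have hd2 : orderOf c ∣ Nat.card Y := by
      have := orderOf_dvd_natCard (⟨c, hcY⟩ : Y)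
      rwa [Subgroup.orderOf_mk] at this
    exact orderOf_eq_one_iff.mp (Nat.eq_one_of_dvd_coprimes hY hd2 hd1)
  rw [h5, one_mul] at h3
  show a * y = y * a
  calc a * y = a * y * a⁻¹ * a := by group
    _ = y * a := by rw [h3]

theorem mem_of_pow_mem_of_pow_prime {p : ℕ} [hp : Fact p.Prime] {a : X} (hap : a ^ p = 1)
    {H : Subgroup X} {k : ℕ} (hk : ¬ p ∣ k) (h : a ^ k ∈ H) : a ∈ H := by
  have hco : k.Coprime (orderOf a) :=
    Nat.Coprime.coprime_dvd_right (orderOf_dvd_of_pow_eq_one hap)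
      ((Nat.Prime.coprime_iff_not_dvd hp.out).2 hk).symm
  obtain ⟨m, hm⟩ := exists_pow_eq_self_of_coprime hco
  rw [← hm]
  exact H.pow_mem h m


/-- Key lemma: an elementary abelian `p`-group `E` acting faithfully on a `p'`-group `K`. -/
theorem exists_pair_gen [Finite X] (p : ℕ) [hp : Fact p.Prime] (E K : Subgroup X)
    (hEc : ∀ e ∈ E, ∀ f ∈ E, Commute e f) (hEp : ∀ e ∈ E, e ^ p = 1)
    (hK : (Nat.card K).Coprime p) (hEK : E ≤ normalizer (K : Set X))
    (hEne : E ≠ ⊥) (hCK : E ⊓ centralizer (K : Set X) = ⊥) :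
    ∃ (E₀ : Subgroup X) (a y : X), E₀ ≤ E ∧ a ∈ E ∧ a ∉ E₀ ∧ y ∈ K ∧
      (∀ u ∈ E, u ∉ E₀ → ∀ v ∈ E, ∃ i : ℕ, u ^ i * v ∈ E₀) ∧
      (∀ e ∈ E₀, Commute e y) ∧ y ∈ closure {a, y * a * y⁻¹} ∧
      ¬ Commute a (y * a * y⁻¹ * a⁻¹) := by
  classical
  -- the maximal `E₀`
  let S : Set (Subgroup X) :=
    {E₁ | E₁ ≤ E ∧ ¬ E ≤ centralizer ((K ⊓ centralizer (E₁ : Set X) : Subgroup X) : Set X)}
  have hSne : S.Nonempty := by
    refine ⟨⊥, bot_le, fun h => hEne ?_⟩
    have h1 : K ⊓ centralizer ((⊥ : Subgroup X) : Set X) = K := by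
      rw [inf_eq_left]
      intro k _
      rw [mem_centralizer_iff]
      intro z hz
      have : z = 1 := hz
      rw [this]; simp
    rw [h1] at h
    rw [eq_bot_iff, ← hCK]
    exact le_inf le_rfl h
  obtain ⟨E₀, hE₀max⟩ := (Set.toFinite S).exists_maximal hSne
  obtain ⟨hE₀E, hE₀n⟩ := hE₀max.prop
  set Y : Subgroup X := K ⊓ centralizer (E₀ : Set X) with hYdef
  have hYK : Y ≤ K := inf_le_left
  have hYcop : (Nat.card Y).Coprime p := Nat.Coprime.coprime_dvd_left (card_dvd_of_le hYK) hK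
  obtain ⟨a, haE, haY⟩ := SetLike.not_le_iff_exists.mp hE₀n
  have hEY : E ≤ normalizer (Y : Set X) := by
    apply Helper52.le_normalizer_of_conj_mem
    intro e he z hz
    refine ⟨(mem_normalizer_iff.mp (hEK he) z).mp hz.1, ?_⟩
    show e * z * e⁻¹ ∈ centralizer (E₀ : Set X)
    rw [mem_centralizer_iff]
    intro f hf
    have h1 : f * z = z * f := (mem_centralizer_iff.mp hz.2) f hf
    have h2 : f * e = e * f := (hEc f (hE₀E hf) e he).eq
    have h3 : f * e⁻¹ = e⁻¹ * f := ((hEc f (hE₀E hf) e he).inv_right).eq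
    calc f * (e * z * e⁻¹) = (f * e) * z * e⁻¹ := by group
      _ = e * (f * z) * e⁻¹ := by rw [h2]; group
      _ = e * z * (f * e⁻¹) := by rw [h1]; group
      _ = e * z * e⁻¹ * f := by rw [h3]; group
  have hE₀Y : E₀ ≤ centralizer (Y : Set X) := by
    rw [le_centralizer_iff]
    exact inf_le_right
  have haE₀ : a ∉ E₀ := fun h => haY (hE₀Y h)
  -- fixed points of elements outside `E₀` are centralised by `E`
  have hfix : ∀ c ∈ E, c ∉ E₀ → Y ⊓ centralizer {c} ≤ centralizer (E : Set X) := by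
    intro c hc hcE₀
    by_contra hcon
    have hmem : E₀ ⊔ zpowers c ∈ S := by
      refine ⟨sup_le hE₀E (by rwa [zpowers_le]), fun h => hcon ?_⟩
      rw [le_centralizer_iff]
      refine h.trans (centralizer_le ?_)
      intro z hz
      refine ⟨hz.1.1, ?_⟩
      have : E₀ ⊔ zpowers c ≤ centralizer ({z} : Set X) := by
        refine sup_le ?_ ?_
        · intro f hf
          rw [mem_centralizer_singleton_iff]
          exact (mem_centralizer_iff.mp hz.1.2 f hf)
        · rw [zpowers_le, mem_centralizer_singleton_iff]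
          exact (mem_centralizer_singleton_iff.mp hz.2).symm
      show z ∈ centralizer ((E₀ ⊔ zpowers c : Subgroup X) : Set X)
      rw [mem_centralizer_iff]
      intro f hf
      exact (mem_centralizer_singleton_iff.mp (this hf))
    have hle : E₀ ⊔ zpowers c ≤ E₀ := hE₀max.le_of_ge hmem le_sup_left
    exact hcE₀ (hle (le_sup_right (a := E₀) (mem_zpowers c)))
  have hEpg : IsPGroup p E := by
    intro e
    refine ⟨1, ?_⟩
    rw [pow_one]
    exact Subtype.ext (hEp e e.2)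
  have hEsolv : Group.IsSolvable E := by
    exact Group.isSolvable_of_comm (fun e f => Subtype.ext (hEc e e.2 f f.2).eq)
  have hcopEY : (Nat.card E).Coprime (Nat.card Y) := by
    obtain ⟨n, hn⟩ := hEpg.exists_card_eq
    rw [hn]
    exact (Nat.Coprime.pow_right n hYcop).symm
  have hpY : ¬ p ∣ Nat.card Y := fun h => by
    have := Nat.Coprime.eq_one_of_dvd hYcop.symm h
    exact hp.out.one_lt.ne' this
  have hgen : ∀ u ∈ E, u ∉ E₀ → ∀ v ∈ E, ∃ i : ℕ, u ^ i * v ∈ E₀ := by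
    intro u hu huE₀ v hv
    by_contra hcon
    push Not at hcon
    have h1 := Helper54.le_genC p hEY hcopEY hEsolv hu hv (hEc u hu v hv) (hEp u hu) (hEp v hv) hpY
    apply hE₀n
    rw [le_centralizer_iff]
    refine h1.trans (sup_le (hfix u hu huE₀) (iSup_le fun i => ?_))
    exact hfix _ (E.mul_mem (E.pow_mem hu i) hv) (hcon i)
  -- the minimal `Y₁`
  let S₂ : Set (Subgroup X) :=
    {Y' | Y' ≤ Y ∧ a ∈ normalizer (Y' : Set X) ∧ a ∉ centralizer (Y' : Set X)}
  have hS₂ne : S₂.Nonempty := ⟨Y, le_rfl, hEY haE, haY⟩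
  obtain ⟨Y₁, hY₁min⟩ := (Set.toFinite S₂).exists_minimal hS₂ne
  obtain ⟨hY₁Y, haN, haC⟩ := hY₁min.prop
  have hex : ∃ y ∈ Y₁, ¬ Commute a y := by
    by_contra hcon
    push Not at hcon
    apply haC
    rw [mem_centralizer_iff]
    intro z hz
    exact (hcon z hz).eq.symm
  obtain ⟨y, hyY₁, hay⟩ := hex
  have hY₁cop : (Nat.card Y₁).Coprime p := Nat.Coprime.coprime_dvd_left (card_dvd_of_le hY₁Y) hYcop
  have hnc : ¬ Commute a (a * y * a⁻¹ * y⁻¹) := fun h =>
    hay (commute_of_commute_commutator (hEp a haE) hY₁cop haN hyY₁ h)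
  have hinv : y * a * y⁻¹ * a⁻¹ = (a * y * a⁻¹ * y⁻¹)⁻¹ := by group
  have hnc' : ¬ Commute a (y * a * y⁻¹ * a⁻¹) := by
    rw [hinv]
    intro h
    exact hnc (by simpa using h.inv_right)
  set T : Subgroup X := closure {a, y * a * y⁻¹} with hT
  have haT : a ∈ T := subset_closure (by simp)
  have hyaT : y * a * y⁻¹ ∈ T := subset_closure (by simp)
  have hmem₂ : T ⊓ Y₁ ∈ S₂ := by
    refine ⟨inf_le_right.trans hY₁Y, ?_, ?_⟩
    · rw [mem_normalizer_iff]
      intro z
      have h1 := mem_normalizer_iff.mp haN z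
      have h2 := mem_normalizer_iff.mp (le_normalizer haT) z
      exact and_congr h2 h1
    · intro h
      apply hnc'
      have hcmem : y * a * y⁻¹ * a⁻¹ ∈ T ⊓ Y₁ := by
        refine ⟨T.mul_mem hyaT (T.inv_mem haT), ?_⟩
        have : y * a * y⁻¹ * a⁻¹ = y * (a * y⁻¹ * a⁻¹) := by group
        rw [this]
        exact Y₁.mul_mem hyY₁ ((mem_normalizer_iff.mp haN _).mp (Y₁.inv_mem hyY₁))
      exact ((mem_centralizer_iff.mp h) _ hcmem).symm
  have hle₂ : Y₁ ≤ T ⊓ Y₁ := hY₁min.le_of_le hmem₂ inf_le_right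
  refine ⟨E₀, a, y, hE₀E, haE, haE₀, hYK (hY₁Y hyY₁), hgen, ?_, (hle₂ hyY₁).1, hnc'⟩
  intro e he
  exact (mem_centralizer_iff.mp (hY₁Y hyY₁).2 e he)

end Cfsg.Agent.Lib.Helper14
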