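import Cfsg.Agent.Lib.Helper14.PairGen
import Cfsg.Agent.Lib.Helper14.Sup
import Cfsg.Agent.Lib.Helper14.PSeries
import Cfsg.Agent.Lib.Helper53.Basic
import Cfsg.Agent.Lib.Helper55.HH
import Cfsg.Agent.Lib.Helper3.PGroup
import Cfsg.Prelude.Def_CaseTheorems
import Cfsg.Prelude.Def_Transfer

set_option autoImplicit false
open scoped commutatorElement

namespace Cfsg.Agent.Lib.Helper14

open Subgroup Cfsg

theorem relIndex_eq_prime_of_gen {X : Type*} [Group X] {p : ℕ} [hp : Fact p.Prime]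
    {E₀ E : Subgroup X}
    (hEc : ∀ e ∈ E, ∀ f ∈ E, Commute e f) {a : X} (haE : a ∈ E) (haE₀ : a ∉ E₀) (hap : a ^ p = 1)
    (hgen : ∀ v ∈ E, ∃ i : ℕ, a ^ i * v ∈ E₀) : E₀.relIndex E = p := by
  have hn : (E₀.subgroupOf E).Normal := ⟨fun n hn g => by
    have : g * n * g⁻¹ = n := by
      have h := (hEc g g.2 n n.2).eq
      apply Subtype.ext
      show (g : X) * n * (g : X)⁻¹ = n
      rw [h]; group
    rwa [this]⟩
  rw [relIndex, index_eq_card]
  set ā : ↥E ⧸ E₀.subgroupOf E := QuotientGroup.mk ⟨a, haE⟩ with hā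
  have h1 : ā ^ p = 1 := by
    rw [hā, ← QuotientGroup.mk_pow]
    have : (⟨a, haE⟩ : E) ^ p = 1 := Subtype.ext hap
    rw [this]; rfl
  have h2 : ā ≠ 1 := by
    rw [hā, Ne, QuotientGroup.eq_one_iff]
    exact haE₀
  have h3 : orderOf ā = p := orderOf_eq_prime h1 h2
  rw [← h3]
  symm
  apply orderOf_eq_card_of_forall_mem_zpowers
  intro q
  induction q using QuotientGroup.induction_on with
  | H v =>
    obtain ⟨i, hi⟩ := hgen v v.2
    have h4 : ā ^ i * QuotientGroup.mk v = 1 := by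
      rw [hā, ← QuotientGroup.mk_pow, ← QuotientGroup.mk_mul, QuotientGroup.eq_one_iff]
      exact hi
    have h5 : (QuotientGroup.mk v : ↥E ⧸ E₀.subgroupOf E) = (ā ^ i)⁻¹ :=
      eq_inv_of_mul_eq_one_right h4
    rw [h5]
    exact inv_mem (pow_mem (mem_zpowers _) _)

variable {M : Type*} [Group M]

theorem pRes_le_of_le_sup {p : ℕ} {B A L : Subgroup M} (hA : IsPGroup p A)
    (hAB : A ≤ normalizer (B : Set M)) (hL : L ≤ B ⊔ A) :
    (pResidual p L).map L.subtype ≤ B := by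
  apply Helper53.pRes_le_of
  intro g hg
  obtain ⟨b, hb, u, hu, rfl⟩ := (mem_sup_of_le_normalizer hAB).mp (hL hg)
  obtain ⟨n, hn⟩ := hA ⟨u, hu⟩
  have hn' : u ^ (p ^ n) = 1 := by simpa using congrArg Subtype.val hn
  refine ⟨n, ?_⟩
  have := Helper52.mul_pow_mem_of_normalizer hb (hAB hu) (p ^ n)
  rwa [hn', inv_one, mul_one] at this


theorem eq_one_of_mem_of_pow_eq_one {X : Type*} [Group X] {p k : ℕ} {K : Subgroup X}
    (hK : (Nat.card K).Coprime p) {w : X} (hw : w ∈ K) (hk : w ^ (p ^ k) = 1) : w = 1 := by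
  have hd1 : orderOf w ∣ p ^ k := orderOf_dvd_of_pow_eq_one hk
  have hd2 : orderOf w ∣ Nat.card K := by
    have := orderOf_dvd_natCard (⟨w, hw⟩ : K)
    rwa [Subgroup.orderOf_mk] at this
  exact orderOf_eq_one_iff.mp (Nat.eq_one_of_dvd_coprimes (Nat.Coprime.pow_right k hK) hd2 hd1)

theorem pair_conclusion [Finite M] {p : ℕ} [Fact p.Prime] (R : Subgroup M) [R.Normal]
    (hR : IsPGroup p R)
    (K : Subgroup (M ⧸ R)) [K.Normal] (hK : (Nat.card K).Coprime p)
    (A : Subgroup M) (hA : IsPGroup p A) (x : M) (L : Subgroup M)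
    (hL : L = A ⊔ A.map (MulAut.conj x).toMonoidHom)
    (hxL : x ∈ L) (hxo : (orderOf x).Coprime p)
    (hxK : QuotientGroup.mk' R x ∈ K)
    (E₀ : Subgroup (M ⧸ R)) (hE₀ : E₀ ≤ A.map (QuotientGroup.mk' R))
    (hEc : ∀ e ∈ A.map (QuotientGroup.mk' R), ∀ f ∈ A.map (QuotientGroup.mk' R), Commute e f)
    (hidx : E₀.relIndex (A.map (QuotientGroup.mk' R)) = p)
    (a : M ⧸ R) (ha : a ∈ A.map (QuotientGroup.mk' R))
    (hgen : ∀ u ∈ A.map (QuotientGroup.mk' R), u ∉ E₀ → ∃ i : ℕ, u ^ i * a ∈ E₀)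
    (hcy : ∀ e ∈ E₀, Commute e (QuotientGroup.mk' R x))
    (hnc : ¬ Commute a (QuotientGroup.mk' R x * a * (QuotientGroup.mk' R x)⁻¹ * a⁻¹)) :
    x ∈ (pResidual p L).map L.subtype ∧
    (pResidual p L).map L.subtype ≤ K.comap (QuotientGroup.mk' R) ∧
    ⁅(pResidual p L).map L.subtype, A⁆ = (pResidual p L).map L.subtype ∧
    (A ⊓ (pCore p L).map L.subtype).relIndex A = p ∧ ⁅A ⊓ (pCore p L).map L.subtype, L⁆ ≤ R := by
  set π := QuotientGroup.mk' R with hπ
  set W := (pResidual p L).map L.subtype with hW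
  have hAL : A ≤ L := hL ▸ le_sup_left
  have hxW : x ∈ W := Helper53.mem_pRes hxL hxo
  have hLW : L ≤ normalizer (W : Set M) :=
    le_normalizer.trans (Helper53.normalizer_le_normalizer_pRes p L)
  -- (b)
  have hb : W ≤ K.comap π := by
    apply pRes_le_of_le_sup hA
    · rw [normalizer_eq_top]; exact le_top
    · rw [hL]
      refine sup_le le_sup_right ?_
      rintro _ ⟨a', ha', rfl⟩
      have hxN : x ∈ K.comap π ⊔ A := le_sup_left (a := K.comap π) (mem_comap.mpr hxK)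
      have haN : a' ∈ K.comap π ⊔ A := le_sup_right (a := K.comap π) ha'
      exact mul_mem (mul_mem hxN haN) (inv_mem hxN)
  -- (c)
  have hc : ⁅W, A⁆ = W := by
    apply le_antisymm
    · exact Helper52.commutator_le_of_le_normalizer (hAL.trans hLW)
    · apply pRes_le_of_le_sup hA
      · exact le_sup_right.trans (Helper52.le_normalizer_commutator W A)
      · rw [hL]
        refine sup_le le_sup_right ?_
        rintro _ ⟨a', ha', rfl⟩
        have h1 : (MulAut.conj x).toMonoidHom a' = ⁅x, a'⁆ * a' := by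
          rw [commutatorElement_def]
          simp [MulAut.conj_apply]
        rw [h1]
        exact mul_mem (le_sup_left (a := ⁅W, A⁆) (commutator_mem_commutator hxW ha'))
          (le_sup_right (a := ⁅W, A⁆) ha')
  -- `E₀` is central in the image of `L`
  have hLc : L ≤ (centralizer (E₀ : Set (M ⧸ R))).comap π := by
    rw [hL]
    refine sup_le ?_ ?_
    · intro a' ha'
      rw [mem_comap, mem_centralizer_iff]
      intro f hf
      exact (hEc f (hE₀ hf) (π a') (mem_map_of_mem π ha')).eq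
    · rintro _ ⟨a', ha', rfl⟩
      rw [mem_comap, mem_centralizer_iff]
      intro f hf
      have h1 : π ((MulAut.conj x).toMonoidHom a') = π x * π a' * (π x)⁻¹ := by
        simp [MulAut.conj_apply]
      rw [h1]
      exact (((hcy f hf).mul_right (hEc f (hE₀ hf) (π a') (mem_map_of_mem π ha'))).mul_right
        (hcy f hf).inv_right).eq
  have hEpg : IsPGroup p (A.map π) := hA.map π
  have hOeq : (pCore p L).map L.subtype = pCoreOf p L := rfl
  have hA₀ : A ⊓ (pCore p L).map L.subtype = A ⊓ E₀.comap π := by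
    rw [hOeq]
    apply le_antisymm
    · refine le_inf inf_le_left ?_
      rintro g ⟨hgA', hgO'⟩
      have hgA : g ∈ A := hgA'
      have hgO : g ∈ pCoreOf p L := hgO'
      by_contra hg
      rw [mem_comap] at hg
      obtain ⟨i, hi⟩ := hgen (π g) (mem_map_of_mem π hgA) hg
      obtain ⟨a₁, ha₁, rfl⟩ := ha
      set dd := x * a₁ * x⁻¹ * a₁⁻¹ with hdd
      have hddL : dd ∈ L := mul_mem (mul_mem (mul_mem hxL (hAL ha₁)) (inv_mem hxL))
        (inv_mem (hAL ha₁))
      have hπdd : π dd = π x * π a₁ * (π x)⁻¹ * (π a₁)⁻¹ := by simp [hdd]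
      have hddK : π dd ∈ K := by
        have : π dd = π x * (π a₁ * (π x)⁻¹ * (π a₁)⁻¹) := by rw [hπdd]; group
        rw [this]
        exact mul_mem hxK (Normal.conj_mem inferInstance _ (inv_mem hxK) _)
      have hwO : g * dd * g⁻¹ * dd⁻¹ ∈ pCoreOf p L := by
        have : g * dd * g⁻¹ * dd⁻¹ = g * (dd * g⁻¹ * dd⁻¹) := by group
        rw [this]
        exact mul_mem hgO ((mem_normalizer_iff.mp (Helper53.le_normalizer_pCoreOf p L hddL) _).mp
          (inv_mem hgO))
      obtain ⟨k, hk⟩ := (Helper53.pCoreOf_isPGroup p L) ⟨_, hwO⟩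
      have hk' : (g * dd * g⁻¹ * dd⁻¹) ^ (p ^ k) = 1 := by simpa using congrArg Subtype.val hk
      have hwK : π (g * dd * g⁻¹ * dd⁻¹) ∈ K := by
        have : π (g * dd * g⁻¹ * dd⁻¹) = (π g * π dd * (π g)⁻¹) * (π dd)⁻¹ := by simp
        rw [this]
        exact mul_mem (Normal.conj_mem inferInstance _ hddK _) (inv_mem hddK)
      have hw1 : π (g * dd * g⁻¹ * dd⁻¹) = 1 :=
        eq_one_of_mem_of_pow_eq_one hK hwK (by rw [← map_pow, hk', map_one])
      have hcomm : Commute (π g) (π dd) := by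
        have h2 : π g * π dd * (π g)⁻¹ * (π dd)⁻¹ = 1 := by simpa using hw1
        show π g * π dd = π dd * π g
        calc π g * π dd = (π g * π dd * (π g)⁻¹ * (π dd)⁻¹) * (π dd * π g) := by group
          _ = π dd * π g := by rw [h2, one_mul]
      have hc₀ : Commute (π g ^ i * π a₁) (π dd) :=
        (mem_centralizer_iff.mp (hLc hddL) _ hi)
      apply hnc
      rw [← hπdd]
      have h3 : π a₁ = (π g ^ i)⁻¹ * (π g ^ i * π a₁) := by group
      rw [h3]
      exact ((hcomm.pow_left i).inv_left).mul_left hc₀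
    · refine le_inf inf_le_left ?_
      have h1 : A ⊓ E₀.comap π ≤ L ⊓ E₀.comap π := inf_le_inf_right _ hAL
      refine h1.trans (Helper53.le_pCoreOf inf_le_left ?_ ?_)
      · apply Helper52.le_normalizer_of_conj_mem
        intro g hg b hb
        have hb1 : b ∈ L := hb.1
        refine ⟨L.mul_mem (L.mul_mem hg hb1) (L.inv_mem hg), ?_⟩
        have hb2 : π b ∈ E₀ := hb.2
        have h2 : π b * π g = π g * π b := mem_centralizer_iff.mp (hLc hg) _ hb2
        show π (g * b * g⁻¹) ∈ E₀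
        have h3 : π (g * b * g⁻¹) = π b := by
          rw [map_mul, map_mul, ← h2, map_inv]; group
        rw [h3]; exact hb2
      · have h2 : IsPGroup p (E₀.comap π) := by
          apply (hEpg.to_le hE₀).comap_of_ker_isPGroup
          rw [hπ, QuotientGroup.ker_mk']
          exact hR
        exact h2.to_le inf_le_right
  refine ⟨hxW, hb, hc, ?_, ?_⟩
  · rw [hA₀, inf_relIndex_left, relIndex_comap]
    exact hidx
  · rw [hA₀, commutator_le]
    intro g hg l hl
    have hg2 : π g ∈ E₀ := hg.2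
    have h2 : π g * π l = π l * π g := mem_centralizer_iff.mp (hLc hl) _ hg2
    rw [← QuotientGroup.eq_one_iff]
    show π ⁅g, l⁆ = 1
    rw [map_commutatorElement, commutatorElement_eq_one_iff_mul_comm]
    exact h2


theorem pair_main [Finite M] {p : ℕ} [hp : Fact p.Prime] (hM : Cfsg.IsPSolvable p M)
    (A : Subgroup M) (hA : IsPGroup p A)
    (hΦ : (frattini ↥A).map A.subtype ≤ Cfsg.pCore p M) (hnot : ¬ A ≤ Cfsg.pCore p M) :
    ∃ x ∈ (Cfsg.pPrimeCore p (M ⧸ Cfsg.pCore p M)).comap (QuotientGroup.mk' (Cfsg.pCore p M)),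
      ∃ L : Subgroup M, L = A ⊔ A.map (MulAut.conj x).toMonoidHom ∧
      x ∈ (pResidual p L).map L.subtype ∧
      (pResidual p L).map L.subtype ≤
        (Cfsg.pPrimeCore p (M ⧸ Cfsg.pCore p M)).comap (QuotientGroup.mk' (Cfsg.pCore p M)) ∧
      ⁅(pResidual p L).map L.subtype, A⁆ = (pResidual p L).map L.subtype ∧
      (A ⊓ (pCore p L).map L.subtype).relIndex A = p ∧
      ⁅A ⊓ (pCore p L).map L.subtype, L⁆ ≤ Cfsg.pCore p M := by
  set R := Cfsg.pCore p M with hRdef
  have hRp : IsPGroup p R := Helper53.pCore_isPGroup p M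
  have hXs : IsPSolvable p (M ⧸ R) := IsPSolvable.quotient hM R
  have hcore : pCore p (M ⧸ R) = ⊥ := by
    rw [Helper53.pCore_quotient R hRp]
    exact QuotientGroup.map_mk'_self R
  set K := pPrimeCore p (M ⧸ R) with hKdef
  have hKchar : K.Characteristic := Helper28.pPrimeCore_characteristic p
  have hKn : K.Normal := Subgroup.normal_of_characteristic K
  have hKc : (Nat.card K).Coprime p := Helper28.pPrimeCore_coprime p
  have hCK : centralizer (K : Set (M ⧸ R)) ≤ K := Helper55.centralizer_pPrimeCore_le hXs hcore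
  set π := QuotientGroup.mk' R with hπ
  have hker : ∀ g : M, π g = 1 ↔ g ∈ R := fun g => QuotientGroup.eq_one_iff g
  have hEpg : IsPGroup p (A.map π) := hA.map π
  have hEp : ∀ e ∈ A.map π, e ^ p = 1 := by
    rintro _ ⟨g, hg, rfl⟩
    rw [← map_pow, hker]
    apply hΦ
    exact ⟨(⟨g, hg⟩ : A) ^ p, Helper3.pow_p_mem_frattini hA _, rfl⟩
  have hEc : ∀ e ∈ A.map π, ∀ f ∈ A.map π, Commute e f := by
    rintro _ ⟨g, hg, rfl⟩ _ ⟨h, hh, rfl⟩
    have h1 : ⁅g, h⁆ ∈ R := by
      apply hΦ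
      refine ⟨⁅(⟨g, hg⟩ : A), ⟨h, hh⟩⁆, Helper3.commutator_le_frattini hA ?_, rfl⟩
      exact commutator_mem_commutator (mem_top _) (mem_top _)
    rw [← hker, map_commutatorElement, commutatorElement_eq_one_iff_commute] at h1
    exact h1
  have hEne : A.map π ≠ ⊥ := by
    intro h
    apply hnot
    intro g hg
    rw [← hker]
    have : π g ∈ A.map π := mem_map_of_mem π hg
    rw [h] at this
    exact this
  have hEK : A.map π ⊓ centralizer (K : Set (M ⧸ R)) = ⊥ := by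
    rw [eq_bot_iff, ← Helper28.inf_eq_bot_of_isPGroup_of_coprime hEpg hKc]
    exact inf_le_inf_left _ hCK
  obtain ⟨E₀, a, y, hE₀E, haE, haE₀, hyK, hgen, hcy, hyT, hnc⟩ :=
    exists_pair_gen p (A.map π) K hEc hEp hKc (by rw [normalizer_eq_top]; exact le_top) hEne hEK
  obtain ⟨x₀, hx₀⟩ := QuotientGroup.mk'_surjective R y
  obtain ⟨x, hx, hmin⟩ := Set.exists_min_image {x : M | π x = y}
    (fun x => Nat.card ↥(A ⊔ A.map (MulAut.conj x).toMonoidHom)) (Set.toFinite _) ⟨x₀, hx₀⟩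
  have hx' : π x = y := hx
  obtain ⟨a₁, ha₁, ha₁a⟩ := haE
  have hyL : y ∈ (A ⊔ A.map (MulAut.conj x).toMonoidHom).map π := by
    have h1 : closure {a, y * a * y⁻¹} ≤ (A ⊔ A.map (MulAut.conj x).toMonoidHom).map π := by
      rw [closure_le]
      rintro z (rfl | rfl)
      · exact ⟨a₁, le_sup_left (a := A) ha₁, ha₁a⟩
      · refine ⟨x * a₁ * x⁻¹, le_sup_right (a := A) ⟨a₁, ha₁, by simp [MulAut.conj_apply]⟩, ?_⟩
        rw [map_mul, map_mul, map_inv, hx', ha₁a]
    exact h1 hyT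
  obtain ⟨x₁, hx₁L, hx₁y⟩ := hyL
  obtain ⟨n, hn⟩ := Helper53.exists_pow_coprime (p := p) x₁
  have hyo : (orderOf y).Coprime p := by
    have hd2 : orderOf y ∣ Nat.card K := by
      have := orderOf_dvd_natCard (⟨y, hyK⟩ : K)
      rwa [Subgroup.orderOf_mk] at this
    exact Nat.Coprime.coprime_dvd_left hd2 hKc
  obtain ⟨m, hm⟩ := exists_pow_eq_self_of_coprime (x := y) (n := p ^ n)
    (Nat.Coprime.pow_left n hyo.symm)
  set x' := (x₁ ^ (p ^ n)) ^ m with hx'def
  have hx'y : π x' = y := by rw [hx'def, map_pow, map_pow, hx₁y, hm]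
  have hx'o : (orderOf x').Coprime p := Nat.Coprime.coprime_dvd_left (orderOf_pow_dvd m) hn
  have hx'L : x' ∈ A ⊔ A.map (MulAut.conj x).toMonoidHom := pow_mem (pow_mem hx₁L _) _
  have hle : A ⊔ A.map (MulAut.conj x').toMonoidHom ≤ A ⊔ A.map (MulAut.conj x).toMonoidHom :=
    sup_le le_sup_left (Helper53.cj_le_of_le_of_mem le_sup_left hx'L)
  have heq : A ⊔ A.map (MulAut.conj x').toMonoidHom = A ⊔ A.map (MulAut.conj x).toMonoidHom :=
    Subgroup.eq_of_le_of_card_ge hle (hmin x' hx'y)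
  have hidx : E₀.relIndex (A.map π) = p :=
    relIndex_eq_prime_of_gen hEc ⟨a₁, ha₁, ha₁a⟩ haE₀ (hEp a ⟨a₁, ha₁, ha₁a⟩)
      (fun v hv => hgen a ⟨a₁, ha₁, ha₁a⟩ haE₀ v hv)
  refine ⟨x', mem_comap.mpr (hx'y ▸ hyK), A ⊔ A.map (MulAut.conj x').toMonoidHom, rfl, ?_⟩
  exact pair_conclusion R hRp K hKc A hA x' _ rfl (heq ▸ hx'L) hx'o (hx'y ▸ hyK) E₀ hE₀E hEc hidx a
    ⟨a₁, ha₁, ha₁a⟩ (fun u hu hu0 => hgen u hu hu0 a ⟨a₁, ha₁, ha₁a⟩)
    (fun e he => hx'y ▸ hcy e he) (hx'y ▸ hnc)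

end Cfsg.Agent.Lib.Helper14
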