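import Cfsg.Agent.Lib.Helper14.Commutator
import Cfsg.Agent.Lib.Helper14.AxB

set_option autoImplicit false
open scoped commutatorElement

namespace Cfsg.Agent.Lib.Helper14

variable {G : Type*} [Group G] {p : ℕ}

/-- The regularity identity at level `n`. -/
def RegAt (p n : ℕ) (G : Type*) [Group G] : Prop :=
  ∀ a b : G, ∃ c ∈ Cfsg.powerClosure p n
      ⁅Subgroup.closure ({a, b} : Set G), Subgroup.closure ({a, b} : Set G)⁆,
    (a * b) ^ (p ^ n) = a ^ (p ^ n) * b ^ (p ^ n) * c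

theorem powerClosure_bot (p n : ℕ) : Cfsg.powerClosure p n (⊥ : Subgroup G) = ⊥ :=
  le_bot_iff.mp (powerClosure_le p n ⊥)

/-- If products of `p^n`-th powers of elements of `H` are `p^n`-th powers, then so is every
element of the subgroup they generate. -/
theorem exists_pow_of_mem_powerClosure {n : ℕ} {H : Subgroup G}
    (hH : ∀ x ∈ H, ∀ y ∈ H, ∃ z ∈ H, x ^ (p ^ n) * y ^ (p ^ n) = z ^ (p ^ n)) {w : G}
    (hw : w ∈ Cfsg.powerClosure p n H) : ∃ z ∈ H, w = z ^ (p ^ n) := by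
  unfold Cfsg.powerClosure at hw
  induction hw using Subgroup.closure_induction with
  | mem w hw => exact hw
  | one => exact ⟨1, H.one_mem, by simp⟩
  | mul u v _ _ ihu ihv =>
    obtain ⟨x, hx, rfl⟩ := ihu
    obtain ⟨y, hy, rfl⟩ := ihv
    exact hH x hx y hy
  | inv u _ ih =>
    obtain ⟨x, hx, rfl⟩ := ih
    exact ⟨x⁻¹, H.inv_mem hx, by rw [inv_pow]⟩

/-- `⟨g⟩ H' < H` for a non-abelian subgroup `H` of a finite `p`-group. -/
theorem zpowers_sup_commutator_lt [Finite G] [Fact p.Prime] (hG : IsPGroup p G) {H : Subgroup G}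
    (hne : ⁅H, H⁆ ≠ ⊥) {g : G} (hg : g ∈ H) : Subgroup.zpowers g ⊔ ⁅H, H⁆ < H := by
  have hle : Subgroup.zpowers g ⊔ ⁅H, H⁆ ≤ H :=
    sup_le (Subgroup.zpowers_le.mpr hg) (Subgroup.commutator_le_self H)
  refine lt_of_le_of_ne hle ?_
  intro heq
  have hlt : ⁅⁅H, H⁆, H⁆ < ⁅H, H⁆ :=
    commutator_lt_of_isPGroup (hG.to_subgroup _) (hG.to_subgroup _)
      (Subgroup.normalizer_commutator_ge_left H H) hne
  have hcl : Subgroup.zpowers g ⊔ ⁅H, H⁆ = Subgroup.closure ({g} ∪ ((⁅H, H⁆ : Subgroup G) : Set G)) := by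
    rw [Subgroup.closure_union, Subgroup.closure_eq, Subgroup.zpowers_eq_closure]
  have hn : H ≤ Subgroup.normalizer ((⁅⁅H, H⁆, H⁆ : Subgroup G) : Set G) :=
    Subgroup.normalizer_commutator_ge_right _ _
  have h1 : ⁅Subgroup.closure ({g} ∪ ((⁅H, H⁆ : Subgroup G) : Set G)),
      Subgroup.closure ({g} ∪ ((⁅H, H⁆ : Subgroup G) : Set G))⁆ ≤ ⁅⁅H, H⁆, H⁆ := by
    apply commutator_closure_le
    · rw [← hcl, heq]; exact hn
    · rw [← hcl, heq]; exact hn
    · intro x hx y hy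
      rcases hx with hx | hx <;> rcases hy with hy | hy
      · rw [Set.mem_singleton_iff.mp hx, Set.mem_singleton_iff.mp hy, commutatorElement_self]
        exact Subgroup.one_mem _
      · rw [Set.mem_singleton_iff.mp hx, ← commutatorElement_inv]
        exact Subgroup.inv_mem _ (Subgroup.commutator_mem_commutator hy hg)
      · rw [Set.mem_singleton_iff.mp hy]
        exact Subgroup.commutator_mem_commutator hx hg
      · exact Subgroup.commutator_mem_commutator hx (Subgroup.commutator_le_self H hy)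
  rw [← hcl, heq] at h1
  exact absurd h1 (not_le_of_gt hlt)

/-- In a finite `p`-group satisfying the regularity identity at level `n`, products of `p^n`-th
powers of elements of a subgroup `H` are `p^n`-th powers of elements of `H`. -/
theorem RegAt.exists_pow_mul_pow [Finite G] [Fact p.Prime] (hG : IsPGroup p G) {n : ℕ}
    (hR : RegAt p n G) : ∀ H : Subgroup G, ∀ x ∈ H, ∀ y ∈ H,
      ∃ z ∈ H, x ^ (p ^ n) * y ^ (p ^ n) = z ^ (p ^ n) := by
  intro H
  induction' hc : Nat.card H using Nat.strong_induction_on with k ih generalizing H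
  intro x hx y hy
  set H₀ := Subgroup.closure ({x, y} : Set G) with hH₀
  have hH₀H : H₀ ≤ H := by
    rw [hH₀, Subgroup.closure_le]
    rintro _ (rfl | rfl)
    · exact hx
    · exact hy
  have hxH₀ : x ∈ H₀ := Subgroup.subset_closure (by simp)
  have hyH₀ : y ∈ H₀ := Subgroup.subset_closure (by simp)
  obtain ⟨c, hc', hcxy⟩ := hR x y
  by_cases hne : ⁅H₀, H₀⁆ = ⊥
  · rw [hne, powerClosure_bot, Subgroup.mem_bot] at hc'
    rw [hc', mul_one] at hcxy
    exact ⟨x * y, H.mul_mem hx hy, hcxy.symm⟩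
  · have hH₀ne : H₀ ≠ ⊥ := by
      intro h
      apply hne
      rw [h, Subgroup.commutator_bot_left]
    have hlt1 : ⁅H₀, H₀⁆ < H₀ :=
      commutator_lt_of_isPGroup (hG.to_subgroup _) (hG.to_subgroup _) Subgroup.le_normalizer hH₀ne
    have hk1 : Nat.card ↥⁅H₀, H₀⁆ < k := by
      rw [← hc]
      exact lt_of_lt_of_le (card_lt_card_of_lt hlt1) (Subgroup.card_le_of_le hH₀H)
    obtain ⟨d, hd, hcd⟩ := exists_pow_of_mem_powerClosure (ih _ hk1 ⁅H₀, H₀⁆ rfl)
      (Subgroup.inv_mem _ hc')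
    set M := Subgroup.zpowers (x * y) ⊔ ⁅H₀, H₀⁆ with hM
    have hlt2 : M < H₀ := zpowers_sup_commutator_lt hG hne (H₀.mul_mem hxH₀ hyH₀)
    have hk2 : Nat.card ↥M < k := by
      rw [← hc]
      exact lt_of_lt_of_le (card_lt_card_of_lt hlt2) (Subgroup.card_le_of_le hH₀H)
    obtain ⟨z, hz, hzeq⟩ := ih _ hk2 M rfl (x * y)
      ((le_sup_left : Subgroup.zpowers (x * y) ≤ M) (Subgroup.mem_zpowers _)) d
      ((le_sup_right : ⁅H₀, H₀⁆ ≤ M) hd)
    refine ⟨z, hH₀H (hlt2.le hz), ?_⟩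
    rw [← hzeq, ← hcd, hcxy]
    group

theorem RegAt.mem_powerClosure_iff [Finite G] [Fact p.Prime] (hG : IsPGroup p G) {n : ℕ}
    (hR : RegAt p n G) (H : Subgroup G) {w : G} :
    w ∈ Cfsg.powerClosure p n H ↔ ∃ z ∈ H, w = z ^ (p ^ n) :=
  ⟨fun hw => exists_pow_of_mem_powerClosure (hR.exists_pow_mul_pow hG H) hw,
    fun ⟨_, hz, hw⟩ => hw ▸ pow_mem_powerClosure p n hz⟩

/-- `[x^(p^n), y^(p^n)] ∈ ℧_n(H')` for `x, y ∈ H`. -/
theorem RegAt.commutator_pow_mem {n : ℕ} (hR : RegAt p n G) (H : Subgroup G) {a b : G}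
    (ha : a ∈ H) (hb : b ∈ H) :
    ⁅a ^ (p ^ n), b ^ (p ^ n)⁆ ∈ Cfsg.powerClosure p n ⁅H, H⁆ := by
  set M := Cfsg.powerClosure p n ⁅H, H⁆ with hM
  have hHM : H ≤ Subgroup.normalizer (M : Set G) :=
    (Subgroup.normalizer_commutator_ge_left H H).trans (normalizer_le_normalizer_powerClosure p n _)
  have hMn : (M.subgroupOf H).Normal := Subgroup.normal_subgroupOf_of_le_normalizer hHM
  let f : ↥H →* (↥H ⧸ M.subgroupOf H) := MonoidHom.mk' (fun x => QuotientGroup.mk (x ^ (p ^ n))) (by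
    intro x y
    obtain ⟨c, hc, hcxy⟩ := hR (x : G) (y : G)
    have hcl : Subgroup.closure ({(x : G), (y : G)} : Set G) ≤ H := by
      rw [Subgroup.closure_le]
      rintro _ (rfl | rfl)
      · exact x.2
      · exact y.2
    have hcM : c ∈ M := powerClosure_mono p n (Subgroup.commutator_mono hcl hcl) hc
    rw [← QuotientGroup.mk_mul, QuotientGroup.eq, Subgroup.mem_subgroupOf]
    have : (((x * y) ^ (p ^ n))⁻¹ * (x ^ (p ^ n) * y ^ (p ^ n)) : ↥H).1 = c⁻¹ := by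
      simp only [Subgroup.coe_mul, InvMemClass.coe_inv, SubmonoidClass.coe_pow]
      rw [hcxy]; group
    rw [this]
    exact M.inv_mem hcM)
  have h1 : f ⁅(⟨a, ha⟩ : ↥H), ⟨b, hb⟩⁆ = 1 := by
    show QuotientGroup.mk _ = _
    rw [QuotientGroup.eq_one_iff, Subgroup.mem_subgroupOf]
    simp only [SubmonoidClass.coe_pow]
    apply pow_mem_powerClosure
    exact Subgroup.commutator_mem_commutator ha hb
  rw [map_commutatorElement] at h1
  have h2 : ⁅f ⟨a, ha⟩, f ⟨b, hb⟩⁆ =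
      QuotientGroup.mk ⁅(⟨a, ha⟩ : ↥H) ^ (p ^ n), (⟨b, hb⟩ : ↥H) ^ (p ^ n)⁆ := by
    rfl
  rw [h2, QuotientGroup.eq_one_iff, Subgroup.mem_subgroupOf] at h1
  exact h1

theorem RegAt.commutator_powerClosure_le [Finite G] [Fact p.Prime] (hG : IsPGroup p G) {n : ℕ}
    (hR : RegAt p n G) (H : Subgroup G) :
    ⁅Cfsg.powerClosure p n H, Cfsg.powerClosure p n H⁆ ≤ Cfsg.powerClosure p n ⁅H, H⁆ := by
  rw [Subgroup.commutator_le]
  intro u hu v hv
  obtain ⟨a, ha, rfl⟩ := (hR.mem_powerClosure_iff hG H).mp hu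
  obtain ⟨b, hb, rfl⟩ := (hR.mem_powerClosure_iff hG H).mp hv
  exact hR.commutator_pow_mem H ha hb

theorem RegAt.zero (p : ℕ) (G : Type*) [Group G] : RegAt p 0 G := by
  intro a b
  exact ⟨1, Subgroup.one_mem _, by simp⟩

/-- `℧_1(℧_n(K)) ≤ ℧_{n+1}(K)`. -/
theorem RegAt.powerClosure_one_powerClosure_le [Finite G] [Fact p.Prime] (hG : IsPGroup p G)
    {n : ℕ} (hR : RegAt p n G) (K : Subgroup G) :
    Cfsg.powerClosure p 1 (Cfsg.powerClosure p n K) ≤ Cfsg.powerClosure p (n + 1) K := by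
  rw [Cfsg.powerClosure, Subgroup.closure_le]
  rintro _ ⟨w, hw, rfl⟩
  obtain ⟨e, he, rfl⟩ := (hR.mem_powerClosure_iff hG K).mp hw
  rw [SetLike.mem_coe, pow_one, ← pow_mul, ← pow_succ]
  exact pow_mem_powerClosure p (n + 1) he

theorem RegAt.succ [Finite G] [Fact p.Prime] (hG : IsPGroup p G) (h1 : RegAt p 1 G) {n : ℕ}
    (hR : RegAt p n G) : RegAt p (n + 1) G := by
  intro a b
  set H := Subgroup.closure ({a, b} : Set G) with hH
  have haH : a ∈ H := Subgroup.subset_closure (by simp)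
  have hbH : b ∈ H := Subgroup.subset_closure (by simp)
  obtain ⟨c, hc, hcab⟩ := hR a b
  obtain ⟨c₀, hc₀, hcc₀⟩ := (hR.mem_powerClosure_iff hG _).mp hc
  set x := a ^ (p ^ n) with hx
  set y := b ^ (p ^ n) with hy
  obtain ⟨d₁, hd₁, hd₁eq⟩ := h1 (x * y) c
  obtain ⟨d₂, hd₂, hd₂eq⟩ := h1 x y
  have hxP : x ∈ Cfsg.powerClosure p n H := pow_mem_powerClosure p n haH
  have hyP : y ∈ Cfsg.powerClosure p n H := pow_mem_powerClosure p n hbH
  have hcP : c ∈ Cfsg.powerClosure p n H :=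
    powerClosure_mono p n (Subgroup.commutator_le_self H) hc
  have key : ∀ u v : G, u ∈ Cfsg.powerClosure p n H → v ∈ Cfsg.powerClosure p n H →
      Cfsg.powerClosure p 1 ⁅Subgroup.closure ({u, v} : Set G), Subgroup.closure ({u, v} : Set G)⁆ ≤
        Cfsg.powerClosure p (n + 1) ⁅H, H⁆ := by
    intro u v hu hv
    have hcl : Subgroup.closure ({u, v} : Set G) ≤ Cfsg.powerClosure p n H := by
      rw [Subgroup.closure_le]
      rintro _ (rfl | rfl)
      · exact hu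
      · exact hv
    exact (powerClosure_mono p 1 ((Subgroup.commutator_mono hcl hcl).trans
      (hR.commutator_powerClosure_le hG H))).trans (hR.powerClosure_one_powerClosure_le hG _)
  refine ⟨d₂ * c ^ p * d₁, ?_, ?_⟩
  · apply Subgroup.mul_mem _ (Subgroup.mul_mem _ (key x y hxP hyP hd₂) _)
      (key (x * y) c (Subgroup.mul_mem _ hxP hyP) hcP hd₁)
    rw [hcc₀, ← pow_mul, ← pow_succ]
    exact pow_mem_powerClosure p (n + 1) hc₀
  · rw [pow_one] at hd₁eq hd₂eq
    have e1 : (a * b) ^ (p ^ (n + 1)) = ((a * b) ^ (p ^ n)) ^ p := by rw [pow_succ, pow_mul]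
    have e2 : a ^ (p ^ (n + 1)) = x ^ p := by rw [hx, pow_succ, pow_mul]
    have e3 : b ^ (p ^ (n + 1)) = y ^ p := by rw [hy, pow_succ, pow_mul]
    rw [e1, e2, e3, hcab, hd₁eq, hd₂eq]
    simp only [mul_assoc]

theorem RegAt.all [Finite G] [Fact p.Prime] (hG : IsPGroup p G) (h1 : RegAt p 1 G) (n : ℕ) :
    RegAt p n G := by
  induction n with
  | zero => exact RegAt.zero p G
  | succ n ih => exact RegAt.succ hG h1 ih

end Cfsg.Agent.Lib.Helper14
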