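import Cfsg.Agent.Lib.Helper14.StableClosure
import Cfsg.Agent.Lib.Helper14.PConstrained
import Cfsg.Agent.Lib.Helper14.PSolvable

set_option autoImplicit false
open scoped commutatorElement

namespace Cfsg.Agent.Lib.Helper14

universe u

variable {G : Type u} [Group G] [Finite G] {p : ℕ} [Fact p.Prime]

/-- Frattini argument for a `p`-subgroup `W` and a normal `p'`-subgroup `O` with `WO` normal. -/
theorem sup_normalizer_eq_top_of_sup_normal (W O : Subgroup G) [O.Normal] (hW : IsPGroup p W)
    (hO : (Nat.card O).Coprime p) (hM : (W ⊔ O).Normal) :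
    O ⊔ Subgroup.normalizer (W : Set G) = ⊤ := by
  have hWM : W ≤ W ⊔ O := le_sup_left
  have hidx : ¬ p ∣ (W.subgroupOf (W ⊔ O)).index := by
    intro hdvd
    have h1 : Nat.card W * W.relIndex (W ⊔ O) = Nat.card ↥(W ⊔ O) := card_mul_relIndex hWM
    have h2 := card_sup_dvd_of_normal W O
    rw [← h1] at h2
    have h3 : W.relIndex (W ⊔ O) ∣ Nat.card O :=
      Nat.dvd_of_mul_dvd_mul_left Nat.card_pos h2
    exact (Fact.out : p.Prime).one_lt.ne' (Nat.eq_one_of_dvd_coprimes hO (hdvd.trans h3) dvd_rfl)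
  let P : Sylow p ↥(W ⊔ O) := (hW.comap_subtype (K := W ⊔ O)).toSylow hidx
  have hP : (P : Subgroup ↥(W ⊔ O)).map (W ⊔ O).subtype = W := by
    show (W.subgroupOf (W ⊔ O)).map (W ⊔ O).subtype = W
    rw [Subgroup.subgroupOf_map_subtype, inf_of_le_left hWM]
  have h := Sylow.normalizer_sup_eq_top P
  rw [hP] at h
  rw [eq_top_iff, ← h]
  exact sup_le le_sup_right (sup_le (Subgroup.le_normalizer.trans le_sup_right) le_sup_left)

/-- `W(S)` maps onto `W(S̄)` modulo a normal `p'`-subgroup. -/
theorem map_stableNormalClosure_map_mk' (O : Subgroup G) [O.Normal]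
    (hO : (Nat.card O).Coprime p) (S : Subgroup G) (hS : IsPGroup p S) :
    (Cfsg.stableNormalClosure p ↥(S.map (QuotientGroup.mk' O))).map
        (S.map (QuotientGroup.mk' O)).subtype =
      ((Cfsg.stableNormalClosure p ↥S).map S.subtype).map (QuotientGroup.mk' O) := by
  have hinj : Function.Injective ((QuotientGroup.mk' O).subgroupMap S) := by
    rw [injective_iff_map_eq_one]
    intro x hx
    have h1 : (QuotientGroup.mk' O) (x : G) = 1 := congrArg Subtype.val hx
    have h2 : (x : G) ∈ O := (QuotientGroup.eq_one_iff _).mp h1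
    obtain ⟨k, hk⟩ := IsPGroup.iff_card.mp hS
    have hdisj : Disjoint O S :=
      Subgroup.disjoint_of_coprime_natCard (by rw [hk]; exact Nat.Coprime.pow_right k hO)
    have h3 : (x : G) ∈ O ⊓ S := Subgroup.mem_inf.mpr ⟨h2, x.2⟩
    rw [hdisj.eq_bot, Subgroup.mem_bot] at h3
    exact Subtype.ext h3
  let e : ↥S ≃* ↥(S.map (QuotientGroup.mk' O)) :=
    MulEquiv.ofBijective ((QuotientGroup.mk' O).subgroupMap S)
      ⟨hinj, (QuotientGroup.mk' O).subgroupMap_surjective S⟩
  rw [← map_stableNormalClosure p e, Subgroup.map_map, Subgroup.map_map]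
  rfl

end Cfsg.Agent.Lib.Helper14
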